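import Cfsg.Agent.H376.Cyc.Def
import Cfsg.Agent.H72.AdjPSUW

/-!
# S3441, task T-NA2: primes `p ≥ 5` with noncyclic Sylow subgroups of `PSU_n(q)` are adjacent to `2` (helper487)
-/

set_option autoImplicit false

namespace Cfsg.Agent.H487.Cyc

open Cfsg Matrix
open Cfsg.Agent.H376.Cyc
open Cfsg.Agent.H103.UniBlock Cfsg.Agent.H103.PGUUpper Cfsg.Agent.H186
open Cfsg.Agent.ClassicalGeometry.GUBasic Cfsg.Agent.H127
open Cfsg.Agent.H72.AdjPSU

universe v

variable {F : Type v} [Field F] [Fintype F] {q n p : ℕ}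

/-! ### cyclic Sylow subgroups -/

theorem dvd_of_eq {a : ℕ} (hq : 1 ≤ q) (h : if Even a then p ∣ q ^ a - 1 else p ∣ q ^ a + 1) : nu q p ∣ a := by
  apply orderOf_dvd_of_pow_eq_one
  split_ifs at h with he
  · rw [he.neg_pow]
    rw [← ZMod.natCast_eq_zero_iff, Nat.cast_sub (Nat.one_le_pow _ _ hq)] at h
    push_cast at h
    linear_combination h
  · rw [(Nat.not_even_iff_odd.1 he).neg_pow]
    rw [← ZMod.natCast_eq_zero_iff] at h
    push_cast at h
    linear_combination -h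

/-- the factors of the order -/
def fac (q i : ℕ) : ℕ := if Even i then q ^ (i + 1) + 1 else q ^ (i + 1) - 1

theorem dvd_fac {i d : ℕ} : d ∣ fac q i ↔ (if Even (i + 1) then d ∣ q ^ (i + 1) - 1 else d ∣ q ^ (i + 1) + 1) := by
  unfold fac
  by_cases h : Even i
  · rw [if_pos h, if_neg (by rw [Nat.even_add_one, not_not]; exact h)]
  · rw [if_neg h, if_pos (by rw [Nat.even_add_one]; exact h)]

theorem pow_dvd (hF : Fintype.card F = q ^ 2) (hn : 3 ≤ n) (hp : p.Prime) (hpq : ¬ p ∣ q)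
    (hpd : p ∣ Nat.card (PSU n F q)) (h2e : n < 2 * nu q p) {k : ℕ} (hk : p ^ k ∣ Nat.card (PSU n F q)) :
    if Even (nu q p) then p ^ k ∣ q ^ nu q p - 1 else p ^ k ∣ q ^ nu q p + 1 := by
  have hq := two_le hF
  have he1 := nu_pos (q := q) hp hpq
  have hen := nu_le hF (by omega) hp hpq hpd
  obtain ⟨e, he⟩ : ∃ e, nu q p = e + 1 := ⟨nu q p - 1, by omega⟩
  have h0 := S0280.result hF n (by omega)
  have h1 : p ^ k ∣ q ^ (n * (n - 1) / 2) * ∏ i ∈ Finset.range n, fac q i := by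
    change p ^ k ∣ q ^ (n * (n - 1) / 2) * ∏ i ∈ Finset.range n, (if Even i then q ^ (i + 1) + 1 else q ^ (i + 1) - 1)
    rw [← h0]
    exact Dvd.dvd.mul_left (Dvd.dvd.mul_left hk _) _
  have h2 : p ^ k ∣ ∏ i ∈ Finset.range n, fac q i :=
    Nat.Coprime.dvd_of_dvd_mul_left
      (Nat.Coprime.pow_left k (Nat.Coprime.pow_right _ ((Nat.Prime.coprime_iff_not_dvd hp).2 hpq))) h1
  rw [← Finset.mul_prod_erase (Finset.range n) (fac q) (a := e) (Finset.mem_range.2 (by omega))] at h2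
  have h3 : Nat.Coprime (p ^ k) (∏ i ∈ (Finset.range n).erase e, fac q i) := by
    refine Nat.Coprime.pow_left k (Nat.Coprime.prod_right fun i hi => ?_)
    rw [Nat.Prime.coprime_iff_not_dvd hp]
    intro hd
    rw [Finset.mem_erase, Finset.mem_range] at hi
    have h4 : nu q p ∣ i + 1 := dvd_of_eq (by omega) (dvd_fac.1 hd)
    obtain ⟨c, hc⟩ := h4
    have hc1 : c = 1 := by
      rcases Nat.lt_trichotomy c 1 with h | h | h
      · have : c = 0 := by omega
        subst this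
        omega
      · exact h
      · exfalso
        have : nu q p * 2 ≤ nu q p * c := Nat.mul_le_mul_left _ h
        omega
    rw [hc1, he] at hc
    omega
  have h4 := h3.dvd_of_dvd_mul_right h2
  rw [he]
  exact dvd_fac.1 h4

theorem exists_cyclic (hF : Fintype.card F = q ^ 2) (hn : 3 ≤ n) (hp : p.Prime) (hpq : ¬ p ∣ q) (hpq1 : ¬ p ∣ q + 1)
    (hpd : p ∣ Nat.card (PSU n F q)) (h2e : n < 2 * nu q p) : ∃ P : Sylow p (PSU n F q), IsCyclic ↥P := by
  have hpf : Fact p.Prime := ⟨hp⟩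
  set k := (Nat.card (PSU n F q)).factorization p with hk
  have h1 : p ^ k ∣ Nat.card (PSU n F q) := Nat.ordProj_dvd _ _
  have hco : Nat.Coprime (p ^ k) (q + 1) := Nat.Coprime.pow_left k ((Nat.Prime.coprime_iff_not_dvd hp).2 hpq1)
  have h2 : HasBlock F q (nu q p) (p ^ k) :=
    hasBlock_nu hF (nu_pos hp hpq) (pow_dvd hF hn hp hpq hpd h2e h1) hco
  obtain ⟨z, hz⟩ := exists_order_of_block hF hn h2 (nu_pos hp hpq) (nu_le hF (by omega) hp hpq hpd) hco (p ^ k) dvd_rfl
  have hc : Nat.card (Subgroup.zpowers z) = p ^ k := by rw [Nat.card_zpowers, hz]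
  have hpg : IsPGroup p (Subgroup.zpowers z) := IsPGroup.of_card hc
  obtain ⟨Q, hQ⟩ := hpg.exists_le_sylow
  have hQc : Nat.card (Q : Subgroup (PSU n F q)) = p ^ k := Q.card_eq_multiplicity
  have hQe : Subgroup.zpowers z = (Q : Subgroup (PSU n F q)) :=
    Subgroup.eq_of_le_of_card_ge hQ (by rw [hc, hQc])
  refine ⟨Q, ?_⟩
  have h3 : IsCyclic ↥(Q : Subgroup (PSU n F q)) := by
    rw [← hQe]
    infer_instance
  exact h3

/-! ### `n = 3` -/

/-- the characteristic -/
theorem hasBlock_two_char (hF : Fintype.card F = q ^ 2) (hp : p.Prime) (h2 : p ≠ 2) (hpq : p ∣ q) :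
    HasBlock F q 2 (2 * p) := by
  have hpf : Fact p.Prime := ⟨hp⟩
  have hchar : CharP F p := by
    obtain ⟨r, hr⟩ := CharP.exists F
    have hrf : Fact r.Prime := ⟨CharP.char_is_prime F r⟩
    obtain ⟨j, hj, -⟩ := UnitRoots.exists_eq_pow hF r
    rw [hj] at hpq
    have h1 : p = r := (Nat.prime_dvd_prime_iff_eq hp hrf.out).1 (hp.dvd_of_dvd_pow hpq)
    rw [h1]
    exact hr
  obtain ⟨A, hA, hdet, h1, h3⟩ := hasBlock_char hF p
  have hA' : Uni q (-A) := by
    obtain ⟨x, hx, h4⟩ := hA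
    refine ⟨x, hx, ?_⟩
    have h5 : st q (-A) = -st q A := by
      obtain ⟨j, hj, -⟩ := UnitRoots.exists_eq_pow hF p
      have ho : Odd q := by
        rw [hj]
        exact (hp.odd_of_ne_two h2).pow
      ext i k
      rw [st_apply, Matrix.neg_apply, Matrix.neg_apply, st_apply, ho.neg_pow]
    rw [h5, Matrix.neg_mul, Matrix.neg_mul, Matrix.mul_neg, neg_neg, h4]
  have hne : (-1 : F) ≠ 1 := by
    intro h
    have h5 : (2 : F) = 0 := by linear_combination -h
    have h6 : ((2 : ℕ) : F) = 0 := by exact_mod_cast h5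
    rw [CharP.cast_eq_zero_iff F p] at h6
    exact h2 ((Nat.prime_dvd_prime_iff_eq hp Nat.prime_two).1 h6)
  refine ⟨-A, hA', by rw [Matrix.det_neg, hdet]; simp, ?_, ?_⟩
  · rw [Even.neg_pow ⟨p, by ring⟩, mul_comm, pow_mul, h1, one_pow]
  · intro k hk
    have h4 : A ^ (2 * k) = 1 := by
      have h5 : (-A) ^ (2 * k) = 1 := by rw [mul_comm, pow_mul, hk, one_pow]
      rwa [Even.neg_pow ⟨k, by ring⟩] at h5
    have h5 : p ∣ k := ((Nat.coprime_primes hp Nat.prime_two).2 h2).dvd_of_dvd_mul_left (h3 _ h4)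
    have h6 : 2 ∣ k := by
      by_contra h6
      have ho : Odd k := Nat.odd_iff.2 (by omega)
      obtain ⟨c, hc⟩ := h5
      have h7 : A ^ k = 1 := by rw [hc, pow_mul, h1, one_pow]
      rw [ho.neg_pow, h7] at hk
      have h8 := congrFun (congrFun hk 0) 0
      simp only [Matrix.neg_apply, Matrix.one_apply_eq] at h8
      exact hne h8
    exact ((Nat.coprime_primes Nat.prime_two hp).2 (Ne.symm h2)).mul_dvd_of_dvd_of_dvd h6 h5

theorem uni_smul {ι : Type*} [Fintype ι] [DecidableEq ι] {A : Matrix ι ι F}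
    (hA : Uni q A) {c : F} (hc : c ^ (q + 1) = 1) : Uni q (c • A) := by
  obtain ⟨x, hx, h1⟩ := hA
  refine ⟨x, hx, ?_⟩
  rw [st_smul, Matrix.smul_mul, Matrix.smul_mul, Matrix.mul_smul, smul_smul, h1, ← pow_succ, hc, one_smul]

/-- `n = 3`, `q` even, `p ∣ q + 1` -/
theorem three_even (hF : Fintype.card F = q ^ 2) (he : Even q) (hp : p.Prime) (h5 : 5 ≤ p) (hpq : p ∣ q + 1) :
    ∃ z : PSU 3 F q, orderOf z = 2 * p := by
  have hpf : Fact p.Prime := ⟨hp⟩
  have hq := two_le hF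
  obtain ⟨U, hU, hUd, hU1, hU2⟩ : HasBlock F q 2 2 := by
    have h1 := hasBlock_wU hF Nat.prime_two
    rwa [wU, if_pos (Or.inl (even_iff_two_dvd.1 he))] at h1
  have hcard : Nat.card Fˣ = (q + 1) * (q - 1) := by
    rw [Nat.card_units, Nat.card_eq_fintype_card, hF]
    have := Nat.sq_sub_sq q 1
    rwa [one_pow] at this
  obtain ⟨ζ, hζ⟩ := exists_prime_orderOf_dvd_card' (G := Fˣ) p (by rw [hcard]; exact Dvd.dvd.mul_right hpq _)
  have hζq : ζ ^ (q + 1) = 1 := orderOf_dvd_iff_pow_eq_one.1 (hζ ▸ hpq)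
  have hζF : (ζ : F) ^ (q + 1) = 1 := by rw [← Units.val_pow_eq_pow_val, hζq, Units.val_one]
  have hζF2 : (((ζ⁻¹) ^ 2 : Fˣ) : F) ^ (q + 1) = 1 := by
    rw [← Units.val_pow_eq_pow_val, ← pow_mul, mul_comm, pow_mul, inv_pow, hζq, inv_one, one_pow, Units.val_one]
  let e : Fin 3 ≃ Fin 2 ⊕ Fin 1 := (finSumFinEquiv (m := 2) (n := 1)).symm
  refine exists_order_of_index hF le_rfl e
    (A := fromBlocks ((ζ : F) • U) 0 0 ((((ζ⁻¹) ^ 2 : Fˣ) : F) • (1 : Matrix (Fin 1) (Fin 1) F)))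
    (uni_fromBlocks (by omega) (uni_smul hU hζF) (uni_smul (uni_one hF) hζF2)) ?_ ?_ (2 * p) dvd_rfl
  · rw [Matrix.det_fromBlocks_zero₂₁, Matrix.det_smul, Matrix.det_smul, hUd, Matrix.det_one, Fintype.card_fin,
      Fintype.card_fin, mul_one, mul_one, pow_one, ← Units.val_pow_eq_pow_val, ← Units.val_mul, ← mul_pow,
      mul_inv_cancel, one_pow, Units.val_one]
  · intro k t hk
    rw [fromBlocks_pow] at hk
    obtain ⟨h3, h4⟩ := fromBlocks_eq_smul hk
    rw [smul_pow] at h3 h4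
    rw [one_pow] at h4
    have h6 : t = ((((ζ⁻¹) ^ 2) ^ k : Fˣ) : F) := by
      have h5 := congrFun (congrFun h4 0) 0
      simpa using h5.symm
    have h7 : U ^ k = (((ζ⁻¹) ^ (3 * k) : Fˣ) : F) • 1 := by
      have h8 : (ζ : F) ^ k • U ^ k = (ζ : F) ^ k • ((((ζ⁻¹) ^ (3 * k) : Fˣ) : F) • (1 : Matrix (Fin 2) (Fin 2) F)) := by
        rw [h3, h6, smul_smul]
        congr 1
        rw [← Units.val_pow_eq_pow_val, ← Units.val_mul]
        congr 1
        rw [← pow_mul, show 3 * k = k + 2 * k by ring, pow_add, ← mul_assoc, ← mul_pow, mul_inv_cancel, one_pow,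
          one_mul]
      have h9 : (ζ : F) ^ k ≠ 0 := pow_ne_zero _ (Units.ne_zero ζ)
      exact smul_right_injective _ h9 h8
    have h8 := pow_eq_one_of_scalar (by norm_num) hU1 h7
    have h9 : ζ⁻¹ ^ (3 * k * 2) = 1 := by
      apply Units.ext
      rw [pow_mul, Units.val_pow_eq_pow_val, h8, Units.val_one]
    have h10 : p ∣ 3 * k * 2 := by
      rw [← hζ, ← orderOf_inv]
      exact orderOf_dvd_of_pow_eq_one h9
    have h11 : p ∣ k := by
      have hc2 : Nat.Coprime p 2 := (Nat.coprime_primes hp Nat.prime_two).2 (by omega)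
      have hc3 : Nat.Coprime p 3 := (Nat.coprime_primes hp Nat.prime_three).2 (by omega)
      exact hc3.dvd_of_dvd_mul_left (hc2.dvd_of_dvd_mul_right h10)
    have h12 : U ^ k = 1 := by
      have h13 : ζ⁻¹ ^ (3 * k) = 1 := by
        apply orderOf_dvd_iff_pow_eq_one.1
        rw [orderOf_inv, hζ]
        exact Dvd.dvd.mul_left h11 _
      rw [h7, h13, Units.val_one, one_smul]
    exact ((Nat.coprime_primes Nat.prime_two hp).2 (by omega)).mul_dvd_of_dvd_of_dvd (hU2 _ h12) h11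

/-- **T-NA2.** -/
theorem na_psu {n q : ℕ} (hF : Fintype.card F = q ^ 2) (hn : 3 ≤ n) (_h32 : ¬ (n = 3 ∧ q = 2)) : NA (PSU n F q) := by
  intro p hp h5 hpd hcyc
  have hq := two_le hF
  by_cases hpq : p ∣ q
  · exact exists_order_of_block_lt hF hn (hasBlock_two_char hF hp (by omega) hpq) (by omega) (2 * p) dvd_rfl
  have h22 : wU q 2 = 2 := by
    rw [wU, if_pos]
    rcases Nat.even_or_odd q with h | h
    · exact Or.inl (even_iff_two_dvd.1 h)
    · exact Or.inr (even_iff_two_dvd.1 (h.add_odd odd_one))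
  by_cases hpq1 : p ∣ q + 1
  · have hp2 : wU q p = 2 := by rw [wU, if_pos (Or.inr hpq1)]
    by_cases h4 : 4 ≤ n
    · exact adj_of_wU hF hn Nat.prime_two hp (by omega) (by rw [h22, hp2]; exact h4)
    · obtain rfl : n = 3 := by omega
      rcases Nat.even_or_odd q with he | ho
      · exact three_even hF he hp h5 hpq1
      · have h2 : 2 ∣ q + 1 := even_iff_two_dvd.1 (ho.add_odd odd_one)
        refine adj_of_nu hF hn Nat.prime_two hp (by omega) ?_ ?_ ?_
        · intro h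
          exact Nat.not_even_iff_odd.2 ho (even_iff_two_dvd.2 h)
        · rw [nu_eq_one h2, nu_eq_one hpq1]
        · rw [nu_eq_one h2]
          norm_num
  · by_cases h2e : 2 * nu q p ≤ n
    · have h1 := nu_pos (q := q) hp hpq
      have h2 : nu q p ≠ 1 := fun h => hpq1 (dvd_of_nu_eq_one h)
      have hp2 : wU q p = nu q p := by
        rw [wU, if_neg]
        rw [not_or]
        exact ⟨hpq, hpq1⟩
      exact adj_of_wU hF hn Nat.prime_two hp (by omega) (by rw [h22, hp2]; omega)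
    · obtain ⟨P, hP⟩ := exists_cyclic hF hn hp hpq hpq1 hpd (by omega)
      exact absurd hP (hcyc P)

end Cfsg.Agent.H487.Cyc
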